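import Cfsg.Agent.MaxSub.ExtField.Pair

/-!
Trace forms of alternating forms over an extension field: elations, scalings, and the spreading of
an invariant relation on vectors.
-/

set_option autoImplicit false
set_option linter.style.haveILetI false
set_option linter.unusedSectionVars false

namespace Cfsg.Agent.MaxSub.SympExt

open Module Cfsg.Agent.MaxSub.ExtField

variable {F K V : Type*} [Field F] [Field K] [Algebra F K] [AddCommGroup V] [Module F V] [Module K V]
  [IsScalarTower F K V]

/-- The `F`-valued trace of a `K`-bilinear form. -/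
noncomputable def form (h : LinearMap.BilinForm K V) : LinearMap.BilinForm F V :=
  LinearMap.mk₂ F (fun u v => Algebra.trace F K (h u v))
    (fun u u' v => by rw [map_add, LinearMap.add_apply, map_add])
    (fun a u v => by rw [LinearMap.map_smul_of_tower, LinearMap.smul_apply, map_smul])
    (fun u v v' => by rw [map_add, map_add])
    (fun a u v => by rw [LinearMap.map_smul_of_tower, map_smul])

lemma form_apply (h : LinearMap.BilinForm K V) (u v : V) :
    form (F := F) h u v = Algebra.trace F K (h u v) := rfl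

/-- The elation with centre `v`. -/
noncomputable def el (h : LinearMap.BilinForm K V) (v : V) (c : K) : V →ₗ[K] V :=
  (c • h.flip v).smulRight v

lemma el_apply (h : LinearMap.BilinForm K V) (v : V) (c : K) (x : V) :
    el h v c x = (c * h x v) • v := rfl

/-- The standing hypotheses. -/
structure Setup (h : LinearMap.BilinForm K V) (G : Subgroup (V ≃ₗ[F] V)) : Prop where
  alt : ∀ v, h v v = 0
  nondeg : ∀ v, (∀ u, h u v = 0) → v = 0
  iso : ∀ g ∈ G, ∀ u v, form (F := F) h (g u) (g v) = form h u v
  lin : ∀ s : V ≃ₗ[K] V, (∀ u v, h (s u) (s v) = h u v) → s.restrictScalars F ∈ G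

namespace Setup

variable {h : LinearMap.BilinForm K V} {G : Subgroup (V ≃ₗ[F] V)} (hS : Setup h G)
include hS

lemma swap (u v : V) : h u v = - h v u := by
  have e := hS.alt (u + v)
  simp only [map_add, LinearMap.add_apply, hS.alt, zero_add, add_zero] at e
  exact eq_neg_of_add_eq_zero_right e

lemma form_swap (u v : V) : form (F := F) h u v = - form (F := F) h v u := by
  rw [form_apply, form_apply, hS.swap, map_neg]

lemma form_alt (v : V) : form (F := F) h v v = 0 := by rw [form_apply, hS.alt, map_zero]

lemma exists_partner {y : V} (hy : y ≠ 0) : ∃ p, h y p = 1 := by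
  obtain ⟨u, hu⟩ : ∃ u, h u y ≠ 0 := by
    by_contra hc
    push Not at hc
    exact hy (hS.nondeg y hc)
  exact ⟨(h y u)⁻¹ • u, by
    rw [map_smul, smul_eq_mul, inv_mul_cancel₀ (by rw [hS.swap]; exact neg_ne_zero.2 hu)]⟩

lemma exists_separating {d u : V} (hd : d ≠ 0) (hu : u ∉ kline F K d) :
    ∃ z, h d z = 0 ∧ h u z ≠ 0 := by
  obtain ⟨p, hp⟩ := hS.exists_partner hd
  by_contra hcon
  push Not at hcon
  refine hu (mem_kline.2 ⟨h u p, ?_⟩)
  rw [eq_comm, ← sub_eq_zero]
  refine hS.nondeg _ fun z => ?_
  rw [hS.swap, map_sub, map_smul, LinearMap.sub_apply, LinearMap.smul_apply, smul_eq_mul]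
  have := hcon (z - h d z • p) (by rw [map_sub, map_smul, hp, smul_eq_mul, mul_one, sub_self])
  rw [map_sub, map_smul, smul_eq_mul] at this
  linear_combination -this

lemma el_skew (v : V) (c : K) (x z : V) :
    form (F := F) h (el h v c x) z + form (F := F) h x (el h v c z) = 0 := by
  rw [form_apply, form_apply, ← map_add, el_apply, el_apply, map_smul, LinearMap.smul_apply,
    map_smul, smul_eq_mul, smul_eq_mul, hS.swap v z]
  convert map_zero (Algebra.trace F K)
  ring

variable [FiniteDimensional K V]

lemma mem_el (v : V) (c : K) : Mem G ((el h v c).restrictScalars F) := by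
  have hv : (c • h.flip v) v = 0 := by simp [hS.alt]
  refine ⟨(LinearEquiv.transvection hv).restrictScalars F, hS.lin _ fun x y => ?_, fun x => rfl⟩
  show h (x + (c * h x v) • v) (y + (c * h y v) • v) = h x y
  simp only [map_add, map_smul, LinearMap.add_apply, LinearMap.smul_apply, smul_eq_mul, hS.alt,
    hS.swap v y]
  ring

/-- Scaling a vector. -/
lemma exists_scale {y : V} (hy : y ≠ 0) {l : K} (hl : l ≠ 0) :
    ∃ g ∈ G, (∀ (k : K) x, g (k • x) = k • g x) ∧ g y = l • y := by
  obtain ⟨p, hp⟩ := hS.exists_partner hy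
  have hpy : h p y = -1 := by rw [hS.swap, hp]
  let f : V →ₗ[K] V :=
    LinearMap.id + ((l - 1) • h.flip p).smulRight y + ((l⁻¹ - 1) • h y).smulRight p
  have hf : ∀ x, f x = x + ((l - 1) * h x p) • y + ((l⁻¹ - 1) * h y x) • p := fun x => rfl
  have hiso : ∀ x z, h (f x) (f z) = h x z := by
    intro x z
    simp only [hf, map_add, map_smul, LinearMap.add_apply, LinearMap.smul_apply, smul_eq_mul,
      hS.alt, hp, hpy, hS.swap x y, hS.swap p z]
    field_simp
    ring
  have hinj : Function.Injective f := (injective_iff_map_eq_zero f).2 fun x hx =>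
    hS.nondeg x fun u => by rw [← hiso u x, hx, map_zero]
  refine ⟨(LinearEquiv.ofInjectiveEndo f hinj).restrictScalars F, hS.lin _ hiso,
    fun k x => f.map_smul k x, ?_⟩
  show f y = l • y
  rw [hf, hS.alt, hp, mul_one, mul_zero, zero_smul, add_zero, sub_smul, one_smul,
    add_sub_cancel]

/-- An invariant equivalence with a non-orthogonal related pair relates every vector. -/
lemma spread {R : V → V → Prop} (hsymm : ∀ {a b}, R a b → R b a)
    (htrans : ∀ {a b c}, R a b → R b c → R a c)
    (hinv : ∀ g ∈ G, ∀ {a b}, R a b → R (g a) (g b)) {y z : V} (hyz : h y z ≠ 0) (hR : R y z)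
    (hly : ∀ l : K, l ≠ 0 → R y (l • y)) (hlz : ∀ l : K, l ≠ 0 → R z (l • z)) :
    ∀ x, x ≠ 0 → R y x := by
  have same : ∀ {y z x : V}, R y z → h y z ≠ 0 → h y x = h y z → R y x := by
    intro y z x hR hyz hyx
    have move : ∀ {z w : V}, R y z → h y w = 0 → h z w ≠ 0 → R y (z + w) := by
      intro z w hR hw hzw
      obtain ⟨g, hg, hgx⟩ := hS.mem_el w (h z w)⁻¹
      have := hinv g hg hR
      rw [hgx, hgx, LinearMap.restrictScalars_apply, LinearMap.restrictScalars_apply, el_apply,
        el_apply, hw, mul_zero, zero_smul, add_zero, inv_mul_cancel₀ hzw, one_smul] at this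
      exact this
    have hv : h y (x - z) = 0 := by rw [map_sub, hyx, sub_self]
    by_cases hzv : h z (x - z) = 0
    · have h1 : R y (z + y) := move hR (hS.alt y) (by rw [hS.swap]; exact neg_ne_zero.2 hyz)
      have := move (w := x - z - y) h1 (by rw [map_sub, hv, hS.alt, sub_zero]) (by
        rw [map_add, LinearMap.add_apply, map_sub, map_sub (h y), hzv, hv, hS.alt, hS.swap z y]
        simpa using hyz)
      rwa [show z + y + (x - z - y) = x by abel] at this
    · simpa using move hR hv hzv
  have off : ∀ {y z x : V}, R y z → (∀ l : K, l ≠ 0 → R z (l • z)) → h y z ≠ 0 → h y x ≠ 0 →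
      R y x := by
    intro y z x hR hl hyz hyx
    have hl' := htrans hR (hl (h y x / h y z) (div_ne_zero hyx hyz))
    refine same hl' ?_ ?_ <;> rw [map_smul, smul_eq_mul, div_mul_cancel₀ _ hyz]
    exact hyx
  intro x hx
  by_cases hyx : h y x = 0
  swap
  · exact off hR hlz hyz hyx
  have hy : y ≠ 0 := fun e => hyz (by rw [e, map_zero, LinearMap.zero_apply])
  obtain ⟨w, hw1, hw2⟩ : ∃ w, h y w ≠ 0 ∧ h x w ≠ 0 := by
    obtain ⟨p, hp⟩ := hS.exists_partner hy
    obtain ⟨p', hp'⟩ := hS.exists_partner hx
    by_cases h1 : h x p = 0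
    · by_cases h2 : h y p' = 0
      · exact ⟨p + p', by simp [hp, h2], by simp [hp', h1]⟩
      · exact ⟨p', h2, by simp [hp']⟩
    · exact ⟨p, by simp [hp], h1⟩
  have h1 := off hR hlz hyz hw1
  exact htrans h1 (off (hsymm h1) hly (by rw [hS.swap]; exact neg_ne_zero.2 hw1)
    (by rw [hS.swap]; exact neg_ne_zero.2 hw2))

end Setup

end Cfsg.Agent.MaxSub.SympExt
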