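import Cfsg.Agent.MaxSub.SympExt.Basic

/-!
An overgroup of the symplectic group over an extension field of prime degree that moves a line off
the spread contains all transvections, or all products of two transvections over the field of two
elements.
-/

set_option autoImplicit false
set_option linter.style.haveILetI false
set_option linter.unusedSectionVars false

namespace Cfsg.Agent.MaxSub.SympExt

open Module Cfsg.Agent.MaxSub.ExtField

variable {F K V : Type*} [Field F] [Field K] [Algebra F K] [AddCommGroup V] [Module F V] [Module K V]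
  [IsScalarTower F K V]

/-- A hyperplane containing one and closed under inversion, in characteristic two. -/
lemma exists_inverse_off [FiniteDimensional F K] {r : ℕ} (hr : finrank F K = r) (hp : r.Prime)
    (hr3 : 3 ≤ r) (hF : ∀ t : F, t = 0 ∨ t = 1) {ψ : K →ₗ[F] F} (hψ : ψ ≠ 0) (h1 : ψ 1 = 0) :
    ∃ l : K, l ≠ 0 ∧ ψ l ≠ 0 ∧ ψ l⁻¹ = 0 := by
  by_contra hcon
  push Not at hcon
  have hinv : ∀ l, ψ l = 0 → ψ l⁻¹ = 0 := by
    intro l hl
    rcases eq_or_ne l 0 with rfl | hl0
    · simp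
    by_contra hne
    exact hcon l⁻¹ (inv_ne_zero hl0) hne (by rw [inv_inv]; exact hl)
  have h2 : (2 : K) = 0 := by
    rcases hF (2 : F) with e | e
    · rw [← map_ofNat (algebraMap F K) 2, e, map_zero]
    · exact absurd (by linear_combination e : (1 : F) = 0) one_ne_zero
  have hsq : ∀ a b, ψ a = 0 → ψ b = 0 → ψ (a * a * b) = 0 := by
    intro a b ha hb
    rcases eq_or_ne a 0 with rfl | ha0
    · simp
    rcases eq_or_ne b 0 with rfl | hb0
    · simp
    by_cases hab : 1 + a * b = 0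
    · rw [show a * a * b = a by linear_combination a * hab - a * h2]
      exact ha
    · have e : (a⁻¹ + (b⁻¹ + a)⁻¹)⁻¹ = a + a * a * b := by
        rw [show b⁻¹ + a = (1 + a * b) / b by field_simp]
        have e' : a⁻¹ + ((1 + a * b) / b)⁻¹ = (a + a * a * b)⁻¹ := by
          rw [show a + a * a * b = a * (1 + a * b) by ring]
          field_simp
          linear_combination (a * b) * h2
        rw [e', inv_inv]
      have := hinv (a⁻¹ + (b⁻¹ + a)⁻¹)
        (by rw [map_add, hinv a ha, zero_add]; exact hinv _ (by rw [map_add, hinv b hb, ha, add_zero]))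
      rwa [e, map_add, ha, zero_add] at this
  let S : Subalgebra F K :=
    { carrier := {t | ∀ k, ψ k = 0 → ψ (t * k) = 0}
      mul_mem' := fun {s t} hs ht k hk => by rw [mul_assoc]; exact hs _ (ht k hk)
      one_mem' := fun k hk => by rwa [one_mul]
      add_mem' := fun {s t} hs ht k hk => by rw [add_mul, map_add, hs k hk, ht k hk, add_zero]
      zero_mem' := fun k hk => by rw [zero_mul, map_zero]
      algebraMap_mem' := fun f k hk => by rw [← Algebra.smul_def, map_smul, hk, smul_zero] }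
  haveI := Subalgebra.isSimpleOrder_of_finrank_prime F K (hr ▸ hp)
  obtain ⟨a, ha, hnot⟩ : ∃ a, ψ a = 0 ∧ a ∉ Set.range (algebraMap F K) := by
    by_contra hall
    push Not at hall
    have hle : LinearMap.ker ψ ≤ Submodule.span F {(1 : K)} := fun a ha => by
      obtain ⟨f, rfl⟩ := hall a ha
      rw [Algebra.algebraMap_eq_smul_one]
      exact Submodule.smul_mem _ _ (Submodule.mem_span_singleton_self _)
    have e1 := Submodule.finrank_mono hle
    rw [finrank_span_singleton one_ne_zero] at e1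
    have e2 := LinearMap.finrank_range_add_finrank_ker ψ
    have e3 := (Submodule.finrank_le (LinearMap.range ψ)).trans_eq (Module.finrank_self F)
    omega
  rcases eq_bot_or_eq_top S with hb | ht
  · have hm : a * a ∈ S := fun k hk => hsq a k ha hk
    rw [hb, Algebra.mem_bot] at hm
    obtain ⟨f, hf⟩ := hm
    rcases hF f with rfl | rfl
    · rw [map_zero] at hf
      exact hnot ⟨0, by rw [map_zero, mul_self_eq_zero.1 hf.symm]⟩
    · rw [map_one] at hf
      have : (a - 1) * (a - 1) = 0 := by linear_combination -hf + (1 - a) * h2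
      exact hnot ⟨1, by rw [map_one, sub_eq_zero.1 (mul_self_eq_zero.1 this)]⟩
  · refine hψ (LinearMap.ext fun t => ?_)
    have ht' : t ∈ S := ht ▸ Algebra.mem_top
    simpa using ht' 1 h1

/-- The transvection map at `v`. -/
noncomputable def tau (h : LinearMap.BilinForm K V) (v : V) : V →ₗ[F] V :=
  ((form (F := F) h).flip v).smulRight v

lemma tau_apply (h : LinearMap.BilinForm K V) (v x : V) :
    tau (F := F) h v x = form (F := F) h x v • v := rfl

/-- The product of the transvections at `a` and `b` lies in `G`. -/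
def PairRel (h : LinearMap.BilinForm K V) (G : Subgroup (V ≃ₗ[F] V)) (a b : V) : Prop :=
  ∃ g ∈ G, ∀ x, g x = (x + tau (F := F) h b x) + tau (F := F) h a (x + tau (F := F) h b x)

/-- The data produced by a maximal intersection. -/
structure MaxData (h : LinearMap.BilinForm K V) (G : Subgroup (V ≃ₗ[F] V)) where
  g : V ≃ₗ[F] V
  w : V
  y : V
  x₀ : V
  d : V
  z₀ : V
  k₀ : K
  c₀ : K
  g_mem : g ∈ G
  w_ne : w ≠ 0
  x₀_mem : x₀ ∈ kline F K y
  d_mem : d ∈ kline F K y
  d_ne : d ≠ 0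
  d_eq : g (k₀ • w) = d
  x₀_pair : h (g⁻¹ x₀) w ≠ 0
  d_z₀ : form (F := F) h d z₀ = 0
  x₀_z₀ : form (F := F) h x₀ z₀ = 1
  line : ∀ l ∈ kline F K y, g (el h w c₀ (g⁻¹ l)) = form (F := F) h l z₀ • d

variable {h : LinearMap.BilinForm K V} {G : Subgroup (V ≃ₗ[F] V)}
  [FiniteDimensional F V] [FiniteDimensional F K] [FiniteDimensional K V] [Finite K]

lemma exists_trace_ne [Finite F] {a : K} (ha : a ≠ 0) : ∃ c, Algebra.trace F K (c * a) ≠ 0 := by
  by_contra hc
  push Not at hc
  exact Algebra.trace_ne_zero F K (LinearMap.ext fun c => by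
    have := hc (c / a)
    rwa [div_mul_cancel₀ _ ha] at this)

lemma exists_maxData (hS : Setup h G) {r : ℕ} (hr : finrank F K = r) (hp : r.Prime)
    (hnot : ∃ g ∈ G, ∃ w : V, w ≠ 0 ∧ ∀ v, (kline F K w).map g.toLinearMap ≠ kline F K v) :
    Nonempty (MaxData h G) := by
  classical
  haveI : Finite F := Finite.of_injective _ (algebraMap F K).injective
  let P : ℕ → Prop := fun e => ∃ (g : V ≃ₗ[F] V) (w y : V), g ∈ G ∧ w ≠ 0 ∧ y ≠ 0 ∧
    (kline F K w).map g.toLinearMap ≠ kline F K y ∧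
    finrank F ((kline F K w).map g.toLinearMap ⊓ kline F K y : Submodule F V) = e
  obtain ⟨g₁, hg₁, w₁, hw₁, hne₁⟩ := hnot
  obtain ⟨e₀, he₀, he₀1⟩ : ∃ e, P e ∧ 1 ≤ e := by
    refine ⟨_, ⟨g₁, w₁, g₁ w₁, hg₁, hw₁, by simpa using hw₁, hne₁ _, rfl⟩, ?_⟩
    rw [Nat.one_le_iff_ne_zero, Ne, Submodule.finrank_eq_zero, ← Ne, Submodule.ne_bot_iff]
    exact ⟨g₁ w₁, ⟨Submodule.mem_map_of_mem (self_mem_kline w₁), self_mem_kline _⟩,
      by simpa using hw₁⟩
  have hPle : ∀ e, P e → e ≤ r := by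
    rintro e ⟨g, w, y, -, -, hy, -, rfl⟩
    exact (Submodule.finrank_mono inf_le_right).trans_eq (by rw [finrank_kline hy, hr])
  set dm := Nat.findGreatest P r with hdm
  have hdP : P dm := Nat.findGreatest_spec (hPle e₀ he₀) he₀
  have hd1 : 1 ≤ dm := he₀1.trans (Nat.le_findGreatest (hPle e₀ he₀) he₀)
  have hmax : ∀ e, P e → e ≤ dm := fun e he => Nat.le_findGreatest (hPle e he) he
  -- a maximal pair that is not orthogonal
  obtain ⟨g, w, y, hg, hw, hy, hne, hde, x₀, hx₀, hpair⟩ : ∃ (g : V ≃ₗ[F] V) (w y : V),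
      g ∈ G ∧ w ≠ 0 ∧ y ≠ 0 ∧ (kline F K w).map g.toLinearMap ≠ kline F K y ∧
      dm ≤ finrank F ((kline F K w).map g.toLinearMap ⊓ kline F K y : Submodule F V) ∧
      ∃ x₀ ∈ kline F K y, h (g⁻¹ x₀) w ≠ 0 := by
    obtain ⟨g, w, y, hg, hw, hy, hne, hde⟩ := hdP
    by_cases hor : ∃ x₀ ∈ kline F K y, h (g⁻¹ x₀) w ≠ 0
    · exact ⟨g, w, y, hg, hw, hy, hne, hde.ge, hor⟩
    push Not at hor
    obtain ⟨d, hd, hd0⟩ := (Submodule.ne_bot_iff _).1
      (fun hb : (kline F K w).map g.toLinearMap ⊓ kline F K y = ⊥ => by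
        rw [hb, finrank_bot] at hde; omega)
    obtain ⟨a, ha⟩ := mem_kline.1 hd.2
    have ha0 : a ≠ 0 := fun e => hd0 (by rw [← ha, e, zero_smul])
    have hLd : kline F K d = kline F K y := by
      rw [kline, kline, ← ha, Submodule.span_singleton_smul_eq (isUnit_iff_ne_zero.mpr ha0)]
    obtain ⟨u, hu, huL⟩ := SetLike.not_le_iff_exists.1
      (fun hle : (kline F K w).map g.toLinearMap ≤ kline F K y => hne
        (Submodule.eq_of_le_of_finrank_le hle (by
          rw [LinearEquiv.finrank_map_eq, finrank_kline hw, finrank_kline hy])))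
    obtain ⟨z, hdz, huz⟩ := hS.exists_separating hd0 (hLd.symm ▸ huL)
    obtain ⟨c, hc⟩ := exists_trace_ne (F := F) (mul_ne_zero huz huz)
    obtain ⟨E, hE, hEx⟩ := hS.mem_el z c
    obtain ⟨u', hu', rfl⟩ := Submodule.mem_map.1 hu
    have hfix : ∀ l ∈ kline F K y, E l = l := by
      intro l hl
      rw [← hLd] at hl
      obtain ⟨b, rfl⟩ := mem_kline.1 hl
      rw [hEx, LinearMap.restrictScalars_apply, el_apply, map_smul, LinearMap.smul_apply, hdz,
        smul_zero, mul_zero, zero_smul, add_zero]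
    have hg' : g⁻¹ * E * g ∈ G := mul_mem (mul_mem (inv_mem hg) hE) hg
    have hnz : form (F := F) h ((g⁻¹ * E * g) u') u' ≠ 0 := by
      rw [← hS.iso g hg]
      simp only [LinearEquiv.mul_apply, self_inv_apply]
      rw [hEx, map_add, LinearMap.add_apply, hS.form_alt, zero_add,
        LinearMap.restrictScalars_apply, el_apply, form_apply, map_smul, LinearMap.smul_apply,
        smul_eq_mul, hS.swap z]
      simpa [mul_assoc] using hc
    refine ⟨g⁻¹ * E * g, w, w, hg', hw, hw, fun heq => hnz ?_, ?_, ?_⟩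
    · have : (g⁻¹ * E * g) u' ∈ kline F K w := heq ▸ Submodule.mem_map_of_mem hu'
      obtain ⟨p, hp⟩ := mem_kline.1 this
      obtain ⟨q, hq⟩ := mem_kline.1 hu'
      rw [← hp, ← hq, form_apply]
      simp [hS.alt]
    · rw [← hde, ← LinearEquiv.finrank_map_eq (g⁻¹ : V ≃ₗ[F] V)]
      refine Submodule.finrank_mono ?_
      rintro _ ⟨x, ⟨⟨x', hx', rfl⟩, hxL⟩, rfl⟩
      have e : (g⁻¹ * E * g) x' = g⁻¹ (g x') := congrArg (g⁻¹ : V ≃ₗ[F] V) (hfix _ hxL)
      refine ⟨⟨x', hx', e⟩, ?_⟩
      show g⁻¹ (g x') ∈ kline F K w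
      rw [inv_apply_self]
      exact hx'
    · by_contra hall
      push Not at hall
      apply hnz
      obtain ⟨q, rfl⟩ := mem_kline.1 hu'
      have := hall (q • w) hu'
      have e : form (F := F) h ((g⁻¹ * E * g) (q • w)) (q • w) = 0 := by
        rw [← hS.iso _ (inv_mem hg')]
        rw [inv_apply_self, hS.form_swap, form_apply, map_smul (h ((g⁻¹ * E * g)⁻¹ (q • w))), this,
          smul_zero, map_zero, neg_zero]
      exact e
  set U := (kline F K w).map g.toLinearMap with hU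
  set L := kline F K y with hL
  set D := U ⊓ L with hD
  let J : Submodule F K :=
    D.comap (g.toLinearMap ∘ₗ (LinearMap.toSpanSingleton K V w).restrictScalars F)
  have hJ : ∀ k, k ∈ J ↔ g (k • w) ∈ D := fun k => Iff.rfl
  obtain ⟨d, hd, hd0⟩ := (Submodule.ne_bot_iff D).1 fun hb => by
    rw [hb, finrank_bot] at hde; omega
  obtain ⟨_, hkw, hkd⟩ := Submodule.mem_map.1 hd.1
  obtain ⟨k₀, rfl⟩ := mem_kline.1 hkw
  have hx₀U : x₀ ∉ U := by
    rintro ⟨x', hx', rfl⟩
    obtain ⟨b, rfl⟩ := mem_kline.1 hx'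
    apply hpair
    show h (g⁻¹ (g (b • w))) w = 0
    rw [inv_apply_self, map_smul, LinearMap.smul_apply, hS.alt, smul_zero]
  -- elations moving `x₀` into `D` stabilise the line
  have hstab : ∀ k, k ∈ J → ∀ l ∈ L, g (el h w (k / h (g⁻¹ x₀) w) (g⁻¹ l)) ∈ D := by
    intro k hk l hl
    obtain ⟨a, ha, hax⟩ := (hS.mem_el w (k / h (g⁻¹ x₀) w)).conj hg
    simp only [LinearMap.comp_apply, LinearEquiv.coe_coe, LinearMap.restrictScalars_apply] at hax
    have hfix : ∀ u ∈ U, a u = u := by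
      rintro _ ⟨u', hu', rfl⟩
      obtain ⟨b, rfl⟩ := mem_kline.1 hu'
      show a (g (b • w)) = g (b • w)
      rw [hax, inv_apply_self, el_apply]
      simp [hS.alt]
    have hx₀' : a x₀ - x₀ = g (k • w) := by
      rw [hax, add_sub_cancel_left, el_apply, div_mul_cancel₀ _ hpair]
    by_cases heq : L.map a.toLinearMap = L
    · refine ⟨?_, ?_⟩
      · exact Submodule.mem_map_of_mem (mem_kline.2 ⟨_, (el_apply h w _ _).symm⟩)
      · have h1 : a l ∈ L := heq ▸ Submodule.mem_map_of_mem hl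
        rw [hax] at h1
        exact (Submodule.add_mem_iff_right L hl).1 h1
    · exfalso
      have hax₀ : a x₀ ∈ L := by
        rw [eq_add_of_sub_eq hx₀']
        exact L.add_mem ((hJ k).1 hk).2 hx₀
      have hDle : D ⊔ (F ∙ a x₀) ≤ L.map a.toLinearMap ⊓ L := by
        refine sup_le (fun u hu => ⟨⟨u, hu.2, hfix u hu.1⟩, hu.2⟩) ?_
        rw [Submodule.span_singleton_le_iff_mem]
        exact ⟨Submodule.mem_map_of_mem hx₀, hax₀⟩
      have hlt : D < D ⊔ (F ∙ a x₀) := lt_of_le_of_ne le_sup_left fun e => hx₀U (by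
        have h3 : a x₀ ∈ D := e ▸ Submodule.mem_sup_right (Submodule.mem_span_singleton_self _)
        rw [eq_add_of_sub_eq hx₀'] at h3
        exact ((Submodule.add_mem_iff_right D ((hJ k).1 hk)).1 h3).1)
      have : finrank F (L.map a.toLinearMap ⊓ L : Submodule F V) ≤ dm :=
        hmax _ ⟨a, y, y, ha, hy, hy, heq, rfl⟩
      have h4 := Submodule.finrank_lt_finrank_of_lt hlt
      have h5 := Submodule.finrank_mono hDle
      omega
  let S : Subalgebra F K :=
    { carrier := {t | ∀ k ∈ J, t * k ∈ J}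
      mul_mem' := fun {s t} hs ht k hk => by rw [mul_assoc]; exact hs _ (ht k hk)
      one_mem' := fun k hk => by rwa [one_mul]
      add_mem' := fun {s t} hs ht k hk => by rw [add_mul]; exact J.add_mem (hs k hk) (ht k hk)
      zero_mem' := fun k hk => by rw [zero_mul]; exact J.zero_mem
      algebraMap_mem' := fun f k hk => by rw [← Algebra.smul_def]; exact J.smul_mem f hk }
  have hk₀ : k₀ ∈ J := (hJ k₀).2 (by show g (k₀ • w) ∈ D; rw [show g (k₀ • w) = d from hkd]; exact hd)
  have hk₀0 : k₀ ≠ 0 := fun e => hd0 (by rw [← hkd, e]; simp)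
  haveI := Subalgebra.isSimpleOrder_of_finrank_prime F K (hr ▸ hp)
  have hSb : S = ⊥ := by
    refine (eq_bot_or_eq_top S).resolve_right fun ht => hne ?_
    have hUD : U ≤ D := by
      rintro _ ⟨u', hu', rfl⟩
      obtain ⟨b, rfl⟩ := mem_kline.1 hu'
      have h1 : b / k₀ ∈ S := ht ▸ Algebra.mem_top
      have := h1 k₀ hk₀
      rw [div_mul_cancel₀ _ hk₀0] at this
      exact (hJ b).1 this
    exact Submodule.eq_of_le_of_finrank_le (hUD.trans inf_le_right) (by
      rw [LinearEquiv.finrank_map_eq, finrank_kline hw, finrank_kline hy])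
  have hscal : ∀ l ∈ L, ∃ s : F, g (el h w (k₀ / h (g⁻¹ x₀) w) (g⁻¹ l)) = s • d := by
    intro l hl
    have hm : h (g⁻¹ l) w / h (g⁻¹ x₀) w ∈ S := fun k hk => by
      rw [hJ]
      have := hstab k hk l hl
      rw [el_apply] at this
      convert this using 3
      ring
    rw [hSb, Algebra.mem_bot] at hm
    obtain ⟨s, hs⟩ := hm
    refine ⟨s, ?_⟩
    rw [el_apply, ← hkd,
      show k₀ / h (g⁻¹ x₀) w * h (g⁻¹ l) w = algebraMap F K s * k₀ by rw [hs]; ring,
      ← Algebra.smul_def, smul_assoc, map_smul]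
    rfl
  obtain ⟨x₁, hx₁⟩ : ∃ x₁, form (F := F) h d x₁ = -1 := by
    obtain ⟨p, hp'⟩ := hS.exists_partner hd0
    obtain ⟨c, hc⟩ := exists_trace_ne (F := F) (one_ne_zero (α := K))
    rw [mul_one] at hc
    refine ⟨(-(Algebra.trace F K c)⁻¹) • c • p, ?_⟩
    rw [form_apply, LinearMap.map_smul_of_tower, map_smul, map_smul (h d), hp', smul_eq_mul,
      smul_eq_mul, mul_one, neg_mul, inv_mul_cancel₀ hc]
  obtain ⟨A, hA⟩ : ∃ A : V →ₗ[F] V, ∀ x, A x = g (el h w (k₀ / h (g⁻¹ x₀) w) (g⁻¹ x)) :=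
    ⟨g.toLinearMap ∘ₗ (el h w (k₀ / h (g⁻¹ x₀) w)).restrictScalars F ∘ₗ
      (g⁻¹ : V ≃ₗ[F] V).toLinearMap, fun x => rfl⟩
  have hskew : ∀ x z, form (F := F) h (A x) z = - form (F := F) h x (A z) := by
    intro x z
    rw [eq_neg_iff_add_eq_zero, hA, hA, ← hS.iso _ (inv_mem hg), ← hS.iso _ (inv_mem hg) x,
      inv_apply_self, inv_apply_self]
    exact hS.el_skew _ _ _ _
  have hline : ∀ l ∈ L, A l = form (F := F) h l (A x₁) • d := by
    intro l hl
    obtain ⟨s, hs⟩ := hscal l hl
    rw [← hA] at hs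
    have := hskew l x₁
    rw [hs, map_smul, LinearMap.smul_apply, hx₁, smul_eq_mul] at this
    rw [hs]
    congr 1
    linear_combination -this
  have hAx₀ : A x₀ = d := by rw [hA, el_apply, div_mul_cancel₀ _ hpair]; exact hkd
  refine ⟨⟨g, w, y, x₀, d, A x₁, k₀, k₀ / h (g⁻¹ x₀) w, hg, hw, hx₀, hd.2, hd0, hkd, hpair, ?_, ?_,
    fun l hl => by rw [← hA]; exact hline l hl⟩⟩
  · have := hline d hd.2
    have h0 : A d = 0 := by
      rw [hA, ← hkd]
      show g (el h w _ (g⁻¹ (g (k₀ • w)))) = 0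
      rw [inv_apply_self, el_apply]
      simp [hS.alt]
    rw [h0] at this
    exact (smul_eq_zero.1 this.symm).resolve_right hd0
  · have h2 := hline x₀ hx₀
    rw [hAx₀] at h2
    have h3 : (form (F := F) h x₀ (A x₁) - 1) • d = 0 := by rw [sub_smul, one_smul, ← h2, sub_self]
    exact sub_eq_zero.1 ((smul_eq_zero.1 h3).resolve_right hd0)

/-- The dichotomy for overgroups. -/
theorem dichotomy (hS : Setup h G) {r : ℕ} (hr : finrank F K = r) (hp : r.Prime)
    (hnot : ∃ g ∈ G, ∃ w : V, w ≠ 0 ∧ ∀ v, (kline F K w).map g.toLinearMap ≠ kline F K v) :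
    (∀ (v : V) (t : F), Mem G (t • tau h v)) ∨
      ((∀ t : F, t = 0 ∨ t = 1) ∧ ∀ a b : V, a ≠ 0 → b ≠ 0 → PairRel h G a b) := by
  classical
  haveI : Finite F := Finite.of_injective _ (algebraMap F K).injective
  obtain ⟨P⟩ := exists_maxData hS hr hp hnot
  obtain ⟨g, w₀, y, x₀, d, z₀, k₀, c₀, hg, hw₀, hx₀, hd, hd0, hdeq, hpair, hdz, hxz, hline⟩ := P
  have hk₀ : k₀ ≠ 0 := fun e => hd0 (by rw [← hdeq, e]; simp)
  have hy : y ≠ 0 := by
    rintro rfl
    obtain ⟨a, ha⟩ := mem_kline.1 hd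
    exact hd0 (by rw [← ha, smul_zero])
  have hLd : kline F K d = kline F K y := by
    obtain ⟨a, ha⟩ := mem_kline.1 hd
    rw [kline, kline, ← ha, Submodule.span_singleton_smul_eq
      (isUnit_iff_ne_zero.mpr fun e => hd0 (by rw [← ha, e, zero_smul]))]
  have hx₀0 : x₀ ≠ 0 := fun e => by simp [e] at hxz
  -- a second vector of the member, not orthogonal to `x₀`
  obtain ⟨k₁, hk₁⟩ : ∃ k₁, form (F := F) h x₀ (g (k₁ • w₀)) ≠ 0 := by
    obtain ⟨c, hc⟩ := exists_trace_ne (F := F) hpair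
    refine ⟨c, ?_⟩
    rw [← hS.iso _ (inv_mem hg), inv_apply_self, form_apply, map_smul, smul_eq_mul]
    exact hc
  have hk₁0 : k₁ ≠ 0 := fun e => hk₁ (by simp [e])
  -- the relation given by a shared property
  have hspread : ∀ {R : V → V → Prop}, (∀ {a b}, R a b → R b a) →
      (∀ {a b c}, R a b → R b c → R a c) → (∀ g' ∈ G, ∀ {a b}, R a b → R (g' a) (g' b)) →
      (∀ (v : V) (l : K), v ≠ 0 → l ≠ 0 → R d v → R v (l • v)) → R d x₀ →
      R d (g (k₁ • w₀)) → ∀ v, v ≠ 0 → R d v := by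
    intro R hsy htr hinv hl hx hu v hv
    have hh : h x₀ (g (k₁ • w₀)) ≠ 0 := fun e => hk₁ (by rw [form_apply, e, map_zero])
    exact htr hx (hS.spread (fun {a b} => hsy (a := a) (b := b))
      (fun {a b c} => htr (a := a) (b := b) (c := c)) (fun g' hg' {a b} => hinv g' hg' (a := a) (b := b))
      hh (htr (hsy hx) hu) (fun l hl' => hl x₀ l hx₀0 hl' hx)
      (fun l hl' => hl _ l (by simpa using smul_ne_zero hk₁0 hw₀) hl' hu) v hv)
  obtain ⟨A, hA⟩ : ∃ A : V →ₗ[F] V, ∀ x, A x = g (el h w₀ c₀ (g⁻¹ x)) :=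
    ⟨g.toLinearMap ∘ₗ (el h w₀ c₀).restrictScalars F ∘ₗ (g⁻¹ : V ≃ₗ[F] V).toLinearMap,
      fun x => rfl⟩
  have hskew : ∀ x z, form (F := F) h (A x) z = - form (F := F) h x (A z) := by
    intro x z
    rw [eq_neg_iff_add_eq_zero, hA, hA, ← hS.iso _ (inv_mem hg), ← hS.iso _ (inv_mem hg) x,
      inv_apply_self, inv_apply_self]
    exact hS.el_skew _ _ _ _
  have hLL : ∀ l ∈ kline F K y, ∀ l' ∈ kline F K y, h l l' = 0 := by
    intro l hl l' hl'
    obtain ⟨a, rfl⟩ := mem_kline.1 hl
    obtain ⟨b, rfl⟩ := mem_kline.1 hl'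
    simp [hS.alt]
  have hAA : ∀ x, A (A x) = 0 := fun x => by
    rw [hA, hA, inv_apply_self, el_apply, el_apply]
    simp [hS.alt]
  have hAmem : ∀ t : F, Mem G (t • A) := by
    intro t
    refine ((hS.mem_el w₀ (algebraMap F K t * c₀)).conj hg).congr fun x => ?_
    simp only [LinearMap.comp_apply, LinearEquiv.coe_coe, LinearMap.restrictScalars_apply,
      LinearMap.smul_apply, hA, el_apply, mul_assoc, ← Algebra.smul_def, smul_mul_assoc, smul_assoc,
      map_smul]
  have hyz : h z₀ y ≠ 0 := fun e => by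
    obtain ⟨a, ha⟩ := mem_kline.1 hx₀
    rw [← ha, form_apply, map_smul, LinearMap.smul_apply, hS.swap y z₀, e] at hxz
    simp at hxz
  -- the basic element
  have hdelta : ∀ v ∈ kline F K y, ∀ t : F, ∃ f : V →ₗ[F] V, Mem G f ∧
      (∀ x, f x = t • (form (F := F) h v x • d + form (F := F) h d x • v) +
        (t * t * form (F := F) h v z₀ * form (F := F) h d x) • d) := by
    intro v hv t
    obtain ⟨a, ha⟩ := mem_kline.1 hv
    obtain ⟨N, hN⟩ : ∃ N : V →ₗ[F] V, ∀ x, N x = el h y (a / h z₀ y) x :=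
      ⟨(el h y (a / h z₀ y)).restrictScalars F, fun x => rfl⟩
    have hNmem : Mem G N := (hS.mem_el y (a / h z₀ y)).congr fun x => (hN x).symm
    have hNL : ∀ x, N x ∈ kline F K y := fun x => by
      rw [hN, el_apply]; exact mem_kline.2 ⟨_, rfl⟩
    have hN0 : ∀ l ∈ kline F K y, N l = 0 := fun l hl => by
      rw [hN, el_apply, hLL l hl y (self_mem_kline y), mul_zero, zero_smul]
    have hNz : N z₀ = v := by rw [hN, el_apply, div_mul_cancel₀ _ hyz, ha]
    have hNskew : ∀ x z, form (F := F) h (N x) z = - form (F := F) h x (N z) := fun x z => by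
      rw [eq_neg_iff_add_eq_zero, hN, hN]; exact hS.el_skew _ _ _ _
    have hperp : ∀ l ∈ kline F K y, ∀ x, N x = N x ∧ form (F := F) h l (A x) =
        - form (F := F) h d x * form (F := F) h l z₀ := fun l hl x => by
      refine ⟨rfl, ?_⟩
      have := hskew l x
      rw [hA l, hline l hl, map_smul, LinearMap.smul_apply, smul_eq_mul] at this
      linear_combination this
    have hNA : ∀ x, N (A x) = -(form (F := F) h d x) • v := by
      intro x
      have hzero : h (A x + form (F := F) h d x • z₀) y = 0 := by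
        by_contra hne
        obtain ⟨c, hc⟩ := exists_trace_ne (F := F) hne
        apply hc
        have e := (hperp (c • y) (mem_kline.2 ⟨c, rfl⟩) x).2
        have : form (F := F) h (c • y) (A x + form (F := F) h d x • z₀) = 0 := by
          rw [(form (F := F) h (c • y)).map_add, (form (F := F) h (c • y)).map_smul, e, smul_eq_mul]
          ring
        rw [form_apply, map_smul, LinearMap.smul_apply, smul_eq_mul, hS.swap y, mul_neg, map_neg,
          neg_eq_zero] at this
        exact this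
      have e : N (A x + form (F := F) h d x • z₀) = 0 := by
        rw [hN, el_apply, hzero, mul_zero, zero_smul]
      rw [map_add, map_smul, hNz] at e
      rw [neg_smul]
      exact eq_neg_of_add_eq_zero_left e
    have hAN : ∀ x, A (N x) = form (F := F) h v x • d := fun x => by
      rw [hA, hline _ (hNL x), hNskew x z₀, hNz, ← hS.form_swap]
    have hAv : A v = form (F := F) h v z₀ • d := by rw [hA, hline v hv]
    obtain ⟨R, hR, hRx⟩ := hAmem t
    obtain ⟨gN, hgN, hgNx⟩ := hNmem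
    have hRinv : ∀ x, R⁻¹ x = x - t • A x := fun x => by
      apply R.injective
      rw [self_inv_apply, hRx, map_sub, map_smul, LinearMap.smul_apply, LinearMap.smul_apply, hAA]
      simp
    refine ⟨t • ((form (F := F) h v).smulRight d + (form (F := F) h d).smulRight v) +
      ((t * t * form (F := F) h v z₀) • form (F := F) h d).smulRight d, ?_, fun x => rfl⟩
    refine ⟨R * gN * R⁻¹ * gN⁻¹, mul_mem (mul_mem (mul_mem hR hgN) (inv_mem hR)) (inv_mem hgN),
      fun x => ?_⟩
    have hgNinv : gN⁻¹ x = x - N x := by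
      apply gN.injective
      rw [self_inv_apply, hgNx, map_sub, hN0 _ (hNL x), sub_zero, sub_add_cancel]
    have hAd : A d = 0 := by rw [hA, hline d hd, hdz, zero_smul]
    simp only [LinearEquiv.mul_apply, hgNinv, hRinv, hgNx, hRx, map_add, map_sub, map_smul,
      LinearMap.smul_apply, hAA, hAN, hNA, hAv, hAd, hN0 _ (hNL x), hN0 d hd, hN0 v hv,
      LinearMap.add_apply, map_zero,
      LinearMap.smulRight_apply, smul_eq_mul, hS.form_alt, map_neg]
    have hvN : ∀ l ∈ kline F K y, ∀ l' ∈ kline F K y, form (F := F) h l l' = 0 :=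
      fun l hl l' hl' => by rw [form_apply, hLL l hl l' hl', map_zero]
    try simp only [hvN v hv _ (hNL x), hvN d hd _ (hNL x), hvN v hv d hd, hvN d hd v hv,
      hvN d hd d hd, hvN v hv v hv]
    module
  obtain ⟨m, hm⟩ : ∃ m : V → V → V →ₗ[F] V, ∀ a b x,
      m a b x = form (F := F) h a x • b + form (F := F) h b x • a :=
    ⟨fun a b => (form (F := F) h a).smulRight b + (form (F := F) h b).smulRight a, fun a b x => rfl⟩
  have hdd : ∀ l ∈ kline F K y, form (F := F) h d l = 0 :=
    fun l hl => by rw [form_apply, hLL d hd l hl, map_zero]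
  have hLB : ∀ l ∈ kline F K y, ∀ l' ∈ kline F K y, form (F := F) h l l' = 0 :=
    fun l hl l' hl' => by rw [form_apply, hLL l hl l' hl', map_zero]
  by_cases hF : ∀ t : F, t = 0 ∨ t = 1
  swap
  · -- more than two elements
    left
    push Not at hF
    obtain ⟨t, ht0, ht1⟩ := hF
    have hcd : ∀ s : F, Mem G (s • tau h d) := by
      intro s
      obtain ⟨c, hc⟩ : ∃ c, c = -s / (t * t - t) := ⟨_, rfl⟩
      have hv : c • x₀ ∈ kline F K y := Submodule.smul_mem _ c hx₀
      obtain ⟨f₁, hf₁, e₁⟩ := hdelta _ hv t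
      obtain ⟨f₂, hf₂, e₂⟩ := hdelta _ (Submodule.smul_mem _ t hv) 1
      have hkill : ∀ x, f₂ (f₂ x) = 0 := fun x => by
        rw [e₂ x, e₂]
        simp [hLB d hd d hd, hLB d hd x₀ hx₀, hLB x₀ hx₀ d hd, hLB x₀ hx₀ x₀ hx₀]
      have hkill' : ∀ x, f₁ ((-f₂) x) = 0 := fun x => by
        rw [LinearMap.neg_apply, map_neg, e₂ x, e₁]
        simp [hLB d hd d hd, hLB d hd x₀ hx₀, hLB x₀ hx₀ d hd, hLB x₀ hx₀ x₀ hx₀]
      refine (hf₁.add (hf₂.neg hkill) hkill').congr fun x => ?_
      rw [LinearMap.add_apply, LinearMap.neg_apply, e₁, e₂, LinearMap.smul_apply, tau_apply,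
        hS.form_swap x d]
      simp only [map_smul, LinearMap.smul_apply, hxz, smul_eq_mul]
      have ht : t * t - t ≠ 0 := by
        rw [show t * t - t = t * (t - 1) by ring]
        exact mul_ne_zero ht0 (sub_ne_zero.2 ht1)
      match_scalars <;> (rw [hc]; field_simp; ring)
    let C : V → Prop := fun v => ∀ s : F, Mem G (s • tau h v)
    have hCmap : ∀ g' ∈ G, ∀ v, C v → C (g' v) := fun g' hg' v hv s => by
      refine ((hv s).conj hg').congr fun x => ?_
      simp only [LinearMap.comp_apply, LinearEquiv.coe_coe, LinearMap.smul_apply, tau_apply,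
        map_smul]
      rw [← hS.iso g' hg' (g'⁻¹ x) v, self_inv_apply]
    have hCscale : ∀ v, v ≠ 0 → ∀ l : K, l ≠ 0 → C v → C (l • v) := fun v hv l hl hC => by
      obtain ⟨g', hg', -, he⟩ := hS.exists_scale hv hl
      exact he ▸ hCmap g' hg' v hC
    have hall : ∀ v, v ≠ 0 → C d ∧ C v := by
      refine hspread (R := fun a b => C a ∧ C b) (fun {a b} h => ⟨h.2, h.1⟩)
        (fun {a b c} h h' => ⟨h.1, h'.2⟩)
        (fun g' hg' {a b} h => ⟨hCmap g' hg' a h.1, hCmap g' hg' b h.2⟩)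
        (fun v l hv hl h => ⟨h.2, hCscale v hv l hl h.2⟩) ⟨hcd, ?_⟩ ⟨hcd, ?_⟩
      · obtain ⟨a, ha⟩ := mem_kline.1 (hLd.symm ▸ hx₀ : x₀ ∈ kline F K d)
        exact ha ▸ hCscale d hd0 a (fun e => hx₀0 (by rw [← ha, e, zero_smul])) hcd
      · have h1 : C (k₀ • w₀) := by
          have := hCmap g⁻¹ (inv_mem hg) d hcd
          rwa [← hdeq, inv_apply_self] at this
        have h2 := hCscale _ (smul_ne_zero hk₀ hw₀) (k₁ / k₀) (div_ne_zero hk₁0 hk₀) h1
        rw [smul_smul, div_mul_cancel₀ _ hk₀] at h2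
        exact hCmap g hg _ h2
    intro v s
    rcases eq_or_ne v 0 with rfl | hv
    · exact mem_zero.congr fun x => by simp [tau_apply]
    · exact (hall v hv).2 s
  -- two elements
  have h2F : (2 : F) = 0 := (hF 2).resolve_right fun e => one_ne_zero
    (by linear_combination e : (1 : F) = 0)
  have hneg : ∀ v : V, -v = v := fun v => by
    rw [neg_eq_iff_add_eq_zero, ← two_smul F, h2F, zero_smul]
  rcases (Nat.lt_or_ge r 3).symm with hr3 | hr3
  · -- degree at least three
    left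
    let ψ : K →ₗ[F] F :=
      ((form (F := F) h).flip z₀) ∘ₗ ((LinearMap.toSpanSingleton K V d).restrictScalars F)
    have hψ : ∀ l, ψ l = form (F := F) h (l • d) z₀ := fun l => rfl
    obtain ⟨a, ha⟩ := mem_kline.1 (hLd.symm ▸ hx₀ : x₀ ∈ kline F K d)
    obtain ⟨l, hl0, hl1, hl2⟩ := exists_inverse_off hr hp hr3 hF (ψ := ψ)
      (fun e => by
        have := congrArg (fun f : K →ₗ[F] F => f a) e
        rw [hψ, ha, hxz] at this
        exact one_ne_zero this)
      (by rw [hψ, one_smul, hdz])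
    rw [hψ] at hl1 hl2
    have hld : l • d ∈ kline F K y := smul_mem_kline hd l
    have hld' : l⁻¹ • d ∈ kline F K y := smul_mem_kline hd l⁻¹
    obtain ⟨s, hs, hsl, hsd⟩ := hS.exists_scale hd0 hl0
    have hsld : s (l⁻¹ • d) = d := by rw [hsl, hsd, smul_smul, inv_mul_cancel₀ hl0, one_smul]
    obtain ⟨f₁, hf₁, e₁⟩ := hdelta _ hld' 1
    obtain ⟨f₂, hf₂, e₂⟩ := hdelta _ hld 1
    have hf₁' : ∀ x, (s.toLinearMap ∘ₗ f₁ ∘ₗ (s⁻¹ : V ≃ₗ[F] V).toLinearMap) x =
        form (F := F) h d x • (l • d) + form (F := F) h (l • d) x • d := fun x => by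
      have i1 : form (F := F) h (l⁻¹ • d) (s⁻¹ x) = form (F := F) h d x := by
        rw [← hS.iso s hs, self_inv_apply, hsld]
      have i2 : form (F := F) h d (s⁻¹ x) = form (F := F) h (l • d) x := by
        rw [← hS.iso s hs, self_inv_apply, hsd]
      simp only [LinearMap.comp_apply, LinearEquiv.coe_coe, e₁, hl2, mul_zero, zero_mul, zero_smul,
        add_zero, one_smul, map_add, map_smul, hsd, hsld, i1, i2]
    have hfld : form (F := F) h (l • d) z₀ = 1 := (hF _).resolve_left hl1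
    have hkill : ∀ x, (s.toLinearMap ∘ₗ f₁ ∘ₗ (s⁻¹ : V ≃ₗ[F] V).toLinearMap) (f₂ x) = 0 := fun x => by
      rw [hf₁', e₂]
      simp [hLB d hd d hd, hLB d hd _ hld, hLB _ hld d hd, hLB _ hld _ hld]
    have hm1 : Mem G ((1 : F) • tau h d) := by
      refine ((hf₁.conj hs).add hf₂ hkill).congr fun x => ?_
      rw [LinearMap.add_apply, hf₁', e₂, LinearMap.smul_apply, tau_apply, hS.form_swap x d, hfld]
      generalize l • d = p
      linear_combination (norm := module) h2F • (form (F := F) h d x • p +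
        form (F := F) h p x • d + form (F := F) h d x • d)
    let C : V → Prop := fun v => Mem G ((1 : F) • tau h v)
    have hCmap : ∀ g' ∈ G, ∀ v, C v → C (g' v) := fun g' hg' v hv => by
      refine (hv.conj hg').congr fun x => ?_
      simp only [LinearMap.comp_apply, LinearEquiv.coe_coe, LinearMap.smul_apply, tau_apply,
        map_smul]
      rw [← hS.iso g' hg' (g'⁻¹ x) v, self_inv_apply]
    have hCscale : ∀ v, v ≠ 0 → ∀ l : K, l ≠ 0 → C v → C (l • v) := fun v hv l hl hC => by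
      obtain ⟨g', hg', -, he⟩ := hS.exists_scale hv hl
      exact he ▸ hCmap g' hg' v hC
    have hall : ∀ v, v ≠ 0 → C d ∧ C v := by
      refine hspread (R := fun a b => C a ∧ C b) (fun {a b} h => ⟨h.2, h.1⟩)
        (fun {a b c} h h' => ⟨h.1, h'.2⟩)
        (fun g' hg' {a b} h => ⟨hCmap g' hg' a h.1, hCmap g' hg' b h.2⟩)
        (fun v l hv hl h => ⟨h.2, hCscale v hv l hl h.2⟩) ⟨hm1, ?_⟩ ⟨hm1, ?_⟩
      · exact ha ▸ hCscale d hd0 a (fun e => hx₀0 (by rw [← ha, e, zero_smul])) hm1
      · have h1 : C (k₀ • w₀) := by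
          have := hCmap g⁻¹ (inv_mem hg) d hm1
          rwa [← hdeq, inv_apply_self] at this
        have h2 := hCscale _ (smul_ne_zero hk₀ hw₀) (k₁ / k₀) (div_ne_zero hk₁0 hk₀) h1
        rw [smul_smul, div_mul_cancel₀ _ hk₀] at h2
        exact hCmap g hg _ h2
    intro v t
    rcases hF t with rfl | rfl
    · exact mem_zero.congr fun x => by simp
    rcases eq_or_ne v 0 with rfl | hv
    · exact mem_zero.congr fun x => by simp [tau_apply]
    · exact (hall v hv).2
  -- degree two
  right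
  refine ⟨hF, ?_⟩
  have hr2 : r = 2 := by have := hp.two_le; omega
  have hinvol : ∀ a x : V, (x + tau (F := F) h a x) + tau h a (x + tau h a x) = x := fun a x => by
    obtain ⟨c, hc⟩ : ∃ c, c = form (F := F) h x a := ⟨_, rfl⟩
    have e : form (F := F) h (x + c • a) a = c := by
      simp [map_add, map_smul, hS.form_alt, ← hc]
    simp only [tau_apply]
    rw [← hc, e, add_assoc, ← two_smul F, h2F, zero_smul, add_zero]
  have hrefl : ∀ a, PairRel h G a a := fun a =>
    ⟨1, one_mem G, fun x => (hinvol a x).symm⟩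
  have hsymm : ∀ {a b}, PairRel h G a b → PairRel h G b a := by
    rintro a b ⟨g', hg', e⟩
    refine ⟨g'⁻¹, inv_mem hg', fun x => g'.injective ?_⟩
    rw [self_inv_apply, e, hinvol b (x + tau h a x), hinvol a x]
  have htrans : ∀ {a b c}, PairRel h G a b → PairRel h G b c → PairRel h G a c := by
    rintro a b c ⟨g₁', hg₁', e₁⟩ ⟨g₂', hg₂', e₂⟩
    refine ⟨g₁' * g₂', mul_mem hg₁' hg₂', fun x => ?_⟩
    rw [LinearEquiv.mul_apply, e₂, e₁, hinvol b (x + tau h c x)]
  have hinv : ∀ g' ∈ G, ∀ {a b}, PairRel h G a b → PairRel h G (g' a) (g' b) := by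
    rintro g' hg' a b ⟨f, hf, e⟩
    refine ⟨g' * f * g'⁻¹, mul_mem (mul_mem hg' hf) (inv_mem hg'), fun x => ?_⟩
    obtain ⟨x, rfl⟩ : ∃ x', x = g' x' := ⟨g'⁻¹ x, (self_inv_apply g' x).symm⟩
    rw [LinearEquiv.mul_apply, LinearEquiv.mul_apply, inv_apply_self, e]
    simp only [tau_apply, map_add, map_smul, LinearMap.add_apply, LinearMap.smul_apply,
      hS.iso g' hg']
  have hK4 : ∀ z : K, algebraMap F K (Algebra.trace F K z) = z + z ^ 2 := fun z => by
    haveI := Fintype.ofFinite F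
    have hq : Nat.card F = 2 := by
      rw [Nat.card_eq_fintype_card, Fintype.card_eq_nat_card, Nat.card_eq_two_iff' (0 : F)]
      exact ⟨1, one_ne_zero, fun t ht => (hF t).resolve_left ht⟩
    rw [FiniteField.algebraMap_trace_eq_sum_pow, hr, hr2, hq, Finset.sum_range_succ,
      Finset.sum_range_succ, Finset.sum_range_zero]
    norm_num
  have h2K : (2 : K) = 0 := by rw [← map_ofNat (algebraMap F K) 2, h2F, map_zero]
  have hpow : ∀ z : K, z ^ 4 = z := fun z => by
    haveI := Fintype.ofFinite F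
    haveI := Fintype.ofFinite K
    have hc : Fintype.card K = 4 := by
      rw [Module.card_eq_pow_finrank (K := F), hr, hr2, Fintype.card_eq_nat_card,
        show Nat.card F = 2 by
          rw [Nat.card_eq_two_iff' (0 : F)]
          exact ⟨1, one_ne_zero, fun t ht => (hF t).resolve_left ht⟩]
      norm_num
    have := FiniteField.pow_card z
    rwa [hc] at this
  have hsame : ∀ (v : V) (l : K), l ≠ 0 → PairRel h G v (l • v) := by
    intro v l hl
    rcases eq_or_ne l 1 with rfl | hl1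
    · rw [one_smul]; exact hrefl v
    have e3 : l ^ 3 = 1 := mul_left_cancel₀ hl (by linear_combination hpow l)
    have e2 : l ^ 2 + l + 1 = 0 := by
      refine (mul_eq_zero.1 (?_ : (l - 1) * (l ^ 2 + l + 1) = 0)).resolve_left (sub_ne_zero.2 hl1)
      linear_combination e3
    obtain ⟨g', hg', e⟩ := hS.mem_el v l
    refine ⟨g', hg', fun x => ?_⟩
    rw [e, LinearMap.restrictScalars_apply, el_apply, tau_apply, tau_apply, map_add,
      LinearMap.add_apply, map_smul (form (F := F) h), LinearMap.smul_apply,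
      show form (F := F) h (l • v) v = 0 by
        rw [form_apply, map_smul, LinearMap.smul_apply, hS.alt, smul_zero, map_zero],
      smul_zero, add_zero, form_apply, form_apply, map_smul (h x), smul_eq_mul,
      ← algebraMap_smul K (Algebra.trace F K (l * h x v)), smul_smul,
      ← algebraMap_smul K (Algebra.trace F K (h x v)) v, add_assoc, ← add_smul, hK4, hK4]
    congr 2
    linear_combination -(h x v) * e2 + l * h x v * h2K - (h x v) ^ 2 * e3 - (h x v) ^ 2 * h2K
  obtain ⟨a, ha⟩ := mem_kline.1 (hLd.symm ▸ hx₀ : x₀ ∈ kline F K d)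
  have hdu : PairRel h G d (g (k₁ • w₀)) := by
    have h1 := hsame (k₀ • w₀) (k₁ / k₀) (div_ne_zero hk₁0 hk₀)
    rw [smul_smul, div_mul_cancel₀ _ hk₀] at h1
    exact hdeq ▸ hinv g hg h1
  have hall := hspread (R := PairRel h G) (fun {a b} => hsymm (a := a) (b := b))
    (fun {a b c} => htrans (a := a) (b := b) (c := c))
    (fun g' hg' {a b} => hinv g' hg' (a := a) (b := b))
    (fun v l _ hl _ => hsame v l hl)
    (ha ▸ hsame d a (fun e => hx₀0 (by rw [← ha, e, zero_smul]))) hdu
  exact fun u v hu hv => htrans (hsymm (hall u hu)) (hall v hv)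

end Cfsg.Agent.MaxSub.SympExt
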