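import Cfsg.Agent.MaxSub.SympExt.Main
import Cfsg.Agent.MaxSub.ExtField.Main
import Cfsg.Agent.MaxSub.FieldSub
import Cfsg.Agent.GeoClasses.SympMax

/-!
The normaliser of a self-adjoint extension field of prime degree is maximal in the symplectic
group.
-/

set_option autoImplicit false
set_option linter.style.haveILetI false

namespace Cfsg.Agent.MaxSub.SympExt

open Matrix Cfsg.Geo Module Cfsg.Agent.Forms Cfsg.Agent.GeoClasses Cfsg.Agent.ClassicalMax
open scoped MatrixGroups Matrix

/-- Over two elements, a subgroup with all products of two transvections contains the symplectic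
group. -/
lemma spGL_le_of_pairs {F : Type*} [Field F] [Fintype F] {m : ℕ} (hm : 3 ≤ m)
    (hF : ∀ t : F, t = 0 ∨ t = 1) {M : Subgroup (GL (Fin m ⊕ Fin m) F)}
    (h : ∀ a b : Fin m ⊕ Fin m → F, a ≠ 0 → b ≠ 0 → spTau a (1 : F) * spTau b (1 : F) ∈ M) :
    Cfsg.spGL m F ≤ M := by
  intro g hg
  set j : Matrix.symplecticGroup (Fin m) F →* GL (Fin m ⊕ Fin m) F :=
    (Cfsg.spGL m F).subtype.comp (Linear.Symp.toSpGL (F := F) (m := m)).toMonoidHom with hj
  let s : Set (Matrix.symplecticGroup (Fin m) F) :=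
    {x | ∃ a b : Fin m ⊕ Fin m → F, a ≠ 0 ∧ b ≠ 0 ∧ x = Linear.Symp.tau a 1 * Linear.Symp.tau b 1}
  let P : Subgroup (Matrix.symplecticGroup (Fin m) F) := Subgroup.normalClosure s
  have happ : ∀ (x : Matrix.symplecticGroup (Fin m) F) {a : Fin m ⊕ Fin m → F}, a ≠ 0 →
      Linear.Symp.app x a ≠ 0 := by
    intro x a ha h0
    obtain ⟨y, hy⟩ := Linear.Symp.exists_bil_eq_one ha
    have := Linear.Symp.sympBil_app x a y
    rw [h0, hy, map_zero, LinearMap.zero_apply] at this
    exact zero_ne_one this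
  have hPM : P ≤ M.comap j := by
    refine (Subgroup.closure_le _).2 fun x hx => ?_
    obtain ⟨y, ⟨a, b, ha, hb, rfl⟩, hc⟩ := Group.mem_conjugatesOfSet_iff.1 hx
    obtain ⟨c, hc⟩ := isConj_iff.1 hc
    rw [← hc, show c * (Linear.Symp.tau a 1 * Linear.Symp.tau b 1) * c⁻¹ =
      Linear.Symp.tau (Linear.Symp.app c a) 1 * Linear.Symp.tau (Linear.Symp.app c b) 1 by
        rw [← Linear.Symp.tau_conj, ← Linear.Symp.tau_conj]; group]
    show j _ ∈ M
    rw [map_mul]
    exact h _ _ (happ c ha) (happ c hb)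
  haveI : P.Normal := Subgroup.normalClosure_normal
  obtain ⟨e, he⟩ := exists_ne_zero_vec (F := F) (m := m) (by omega)
  set π := QuotientGroup.mk' P with hπ
  have hcyc : Subgroup.comap π (Subgroup.zpowers (π (Linear.Symp.tau e 1))) = ⊤ := by
    refine Linear.Symp.closure_tau_le fun v c => ?_
    show π (Linear.Symp.tau v c) ∈ Subgroup.zpowers (π (Linear.Symp.tau e 1))
    rcases hF c with rfl | rfl
    · rw [show Linear.Symp.tau v (0 : F) = 1 from Subtype.ext (by
        show Cfsg.sympTransvection m v 0 = 1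
        simp [Cfsg.sympTransvection]), map_one]
      exact one_mem _
    by_cases hv : v = 0
    · subst hv
      rw [show Linear.Symp.tau (0 : Fin m ⊕ Fin m → F) (1 : F) = 1 from Subtype.ext (by
        show Cfsg.sympTransvection m 0 1 = 1
        simp [Cfsg.sympTransvection]), map_one]
      exact one_mem _
    have h1 : π (Linear.Symp.tau v 1) * π (Linear.Symp.tau e 1) = 1 := by
      rw [← map_mul, ← MonoidHom.mem_ker, hπ, QuotientGroup.ker_mk']
      exact Subgroup.subset_normalClosure ⟨v, e, hv, he, rfl⟩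
    rw [eq_inv_of_mul_eq_one_left h1]
    exact inv_mem (Subgroup.mem_zpowers _)
  have hle : commutator (Matrix.symplecticGroup (Fin m) F) ≤ P := by
    rw [← QuotientGroup.ker_mk' P, commutator_def, Subgroup.commutator_le]
    intro x _ y _
    rw [MonoidHom.mem_ker, map_commutatorElement, commutatorElement_eq_one_iff_commute]
    have hx : π x ∈ Subgroup.zpowers (π (Linear.Symp.tau e 1)) := by
      rw [← Subgroup.mem_comap, hcyc]; trivial
    have hy : π y ∈ Subgroup.zpowers (π (Linear.Symp.tau e 1)) := by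
      rw [← Subgroup.mem_comap, hcyc]; trivial
    obtain ⟨p, hp⟩ := Subgroup.mem_zpowers_iff.1 hx
    obtain ⟨q, hq⟩ := Subgroup.mem_zpowers_iff.1 hy
    rw [← hp, ← hq]
    exact Commute.zpow_zpow (Commute.refl _) p q
  have : j (Linear.Symp.toSpGL.symm ⟨g, hg⟩) ∈ M := by
    rw [← Subgroup.mem_comap]
    exact hPM (hle (by rw [Linear.Symp.commutator_eq_top (Or.inl hm)]; trivial))
  simpa [hj] using this

theorem spGL_extField_maximal_aux {F : Type*} [Field F] [Fintype F] {m r : ℕ} (hm : 2 ≤ m)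
    (hsmall : 3 ≤ m ∨ 2 < Fintype.card F)
    (hr : r.Prime) {K : Type*} [Field K] [Finite K] [Algebra F K] (hfr : Module.finrank F K = r)
    (ψ : K →ₐ[F] Matrix (Fin m ⊕ Fin m) (Fin m ⊕ Fin m) F)
    (K₀ : Subalgebra F (Matrix (Fin m ⊕ Fin m) (Fin m ⊕ Fin m) F))
    (hψ : ∀ x, x ∈ K₀ ↔ ∃ c, ψ c = x) (hK : IsFieldSubalgebra r K₀)
    (hsa : IsSelfAdjointFor (Cfsg.sympForm m F) K₀)
    (halt : ∀ k ∈ K₀, ∀ v : (Fin m ⊕ Fin m → F), Cfsg.sympForm m F (Matrix.mulVec k v) v = 0) :
    IsMaximalIn (Cfsg.spGL m F) (subalgebraNormalizer K₀ ⊓ Cfsg.spGL m F) := by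
  classical
  letI : Module K (Fin m ⊕ Fin m → F) := Module.compHom (Fin m ⊕ Fin m → F)
    ((Matrix.toLinAlgEquiv' : Matrix (Fin m ⊕ Fin m) (Fin m ⊕ Fin m) F ≃ₐ[F] _).toAlgHom.comp
      ψ).toRingHom
  have hsmul : ∀ (c : K) (v : Fin m ⊕ Fin m → F), c • v = ψ c *ᵥ v := fun c v => rfl
  haveI : IsScalarTower F K (Fin m ⊕ Fin m → F) := ⟨fun a c v => by
    rw [hsmul, hsmul, map_smul, Matrix.smul_mulVec]⟩
  haveI : FiniteDimensional F K := Module.finite_of_finrank_pos (hfr ▸ hr.pos)
  haveI : FiniteDimensional K (Fin m ⊕ Fin m → F) := Module.Finite.of_restrictScalars_finite F K _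
  have hd : 2 ≤ finrank K (Fin m ⊕ Fin m → F) := by
    have h := Module.finrank_mul_finrank F K (Fin m ⊕ Fin m → F)
    rw [hfr, Module.finrank_fintype_fun_eq_card, Fintype.card_sum, Fintype.card_fin] at h
    by_contra h2
    rcases Nat.lt_or_ge (finrank K (Fin m ⊕ Fin m → F)) 1 with h3 | h3
    · rw [Nat.lt_one_iff.mp h3] at h; omega
    · rw [show finrank K (Fin m ⊕ Fin m → F) = 1 by omega, mul_one] at h
      exact Nat.not_prime_mul (a := 2) (b := m) (by omega) (by omega) (by rwa [two_mul, ← h])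
  -- the form over `K`
  have htr : (Algebra.traceForm F K).Nondegenerate := traceForm_nondegenerate F K
  have hext : ∀ x y : K, (∀ k, Algebra.trace F K (k * x) = Algebra.trace F K (k * y)) → x = y := by
    intro x y hxy
    refine sub_eq_zero.1 (htr.1 _ fun k => ?_)
    rw [Algebra.traceForm_apply, mul_comm, mul_sub, map_sub, hxy, sub_self]
  have hsa' : ∀ (k : K) u v, sympBil m F (k • u) v = sympBil m F u (k • v) := fun k u v => by
    rw [sympBil_apply, sympBil_apply, hsmul, hsmul]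
    exact hsa _ ((hψ _).2 ⟨k, rfl⟩) u v
  have hfun : ∀ u v, ∃ c : K, ∀ k : K, Algebra.trace F K (k * c) = sympBil m F (k • u) v := by
    intro u v
    let φ : K →ₗ[F] F :=
      ((sympBil m F).flip v) ∘ₗ ((LinearMap.toSpanSingleton K _ u).restrictScalars F)
    refine ⟨((Algebra.traceForm F K).toDual htr).symm φ, fun k => ?_⟩
    have := LinearMap.BilinForm.apply_toDual_symm_apply (hB := htr) φ k
    rw [Algebra.traceForm_apply, mul_comm] at this
    exact this
  choose c hc using hfun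
  let h : LinearMap.BilinForm K (Fin m ⊕ Fin m → F) := LinearMap.mk₂ K c
    (fun u u' v => hext _ _ fun k => by
      rw [hc, mul_add, map_add, hc, hc, smul_add, map_add, LinearMap.add_apply])
    (fun a u v => hext _ _ fun k => by rw [hc, smul_eq_mul, ← mul_assoc, hc, smul_smul])
    (fun u v v' => hext _ _ fun k => by rw [hc, mul_add, map_add (Algebra.trace F K), hc, hc, map_add])
    (fun a u v => hext _ _ fun k => by
      rw [hc, smul_eq_mul, ← mul_assoc, hc, hsa', hsa', smul_smul])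
  have hh : ∀ u v, h u v = c u v := fun u v => rfl
  have hform : ∀ u v, form (F := F) h u v = sympBil m F u v := fun u v => by
    have := hc u v 1
    rwa [one_mul, one_smul, ← hh, ← form_apply] at this
  set e : GL (Fin m ⊕ Fin m) F ≃* ((Fin m ⊕ Fin m → F) ≃ₗ[F] (Fin m ⊕ Fin m → F)) :=
    Matrix.GeneralLinearGroup.toLin.trans
      (LinearMap.GeneralLinearGroup.generalLinearEquiv F (Fin m ⊕ Fin m → F)) with hedef
  have he : ∀ g v, e g v = (g : Matrix (Fin m ⊕ Fin m) (Fin m ⊕ Fin m) F) *ᵥ v := fun g v => by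
    simp [hedef, Matrix.GeneralLinearGroup.toLin]
  have hNmem : ∀ g : GL (Fin m ⊕ Fin m) F, (∀ k : K, ∃ k' : K, ∀ x, e g (k • x) = k' • e g x) →
      g ∈ subalgebraNormalizer K₀ := by
    intro g hg
    rw [mem_normalizer_iff_map_le]
    intro k hk
    obtain ⟨k, rfl⟩ := (hψ k).mp hk
    obtain ⟨k', hk'⟩ := hg k
    have h1 : (g : Matrix (Fin m ⊕ Fin m) (Fin m ⊕ Fin m) F) * ψ k =
        ψ k' * (g : Matrix (Fin m ⊕ Fin m) (Fin m ⊕ Fin m) F) := by
      refine Matrix.toLin'.injective (LinearMap.ext fun x => ?_)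
      have := hk' x
      rw [he, he, hsmul, hsmul, Matrix.mulVec_mulVec, Matrix.mulVec_mulVec] at this
      rw [Matrix.toLin'_apply, Matrix.toLin'_apply]
      exact this
    rw [h1, mul_assoc, ← Units.val_mul, mul_inv_cancel, Units.val_one, mul_one]
    exact (hψ _).mpr ⟨k', rfl⟩
  refine ⟨lt_of_le_not_ge inf_le_right fun hle => ?_, fun M hM hMS => ?_⟩
  · obtain ⟨v, hv⟩ := exists_ne_zero_vec (F := F) (m := m) (by omega)
    have hφ : (sympBil m F).flip v ≠ 0 := fun h0 => hv (sympBil_nondegenerate.2 v fun u => by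
      have := LinearMap.congr_fun h0 u
      simpa using this)
    refine transvec_not_mem_subalgebraNormalizer (g := spTau v (1 : F))
      (by rw [Fintype.card_sum, Fintype.card_fin]; omega) hr.one_lt hK ⟨?_, fun u => ?_⟩ hφ hv
      (hle (spTau_mem v 1)).1
    · exact sympBil_isAlt.self_eq_zero v
    · rw [GeoClasses.spTau_apply, one_mul]; rfl
  by_cases hMN : M ≤ subalgebraNormalizer K₀
  · exact Or.inl (le_antisymm (le_inf hMN hMS) hM)
  obtain ⟨g, hgM, hgN⟩ := SetLike.not_le_iff_exists.mp hMN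
  refine Or.inr (le_antisymm hMS ?_)
  have hS : Setup h (M.map e.toMonoidHom) := by
    refine ⟨fun v => hext _ _ fun k => ?_, fun v hv => sympBil_nondegenerate.2 v fun u => ?_,
      ?_, fun s hs => ?_⟩
    · rw [hh, hc, mul_zero, map_zero, sympBil_apply, hsmul]
      exact halt _ ((hψ _).2 ⟨k, rfl⟩) v
    · rw [← hform, form_apply, hv u, map_zero]
    · rintro _ ⟨g', hg', rfl⟩ u v
      rw [hform, hform]
      show sympBil m F (e g' u) (e g' v) = _
      rw [he, he]
      exact GeoClasses.mem_spGL_iff.1 (hMS hg') u v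
    · refine ⟨e.symm (s.restrictScalars F), hM ⟨hNmem _ fun k => ⟨k, fun x => ?_⟩, ?_⟩,
        e.apply_symm_apply _⟩
      · rw [MulEquiv.apply_symm_apply]; exact s.map_smul k x
      · refine GeoClasses.mem_spGL_iff.2 fun u v => ?_
        rw [← he, ← he, MulEquiv.apply_symm_apply, ← hform, ← hform]
        show Algebra.trace F K (h (s u) (s v)) = _
        rw [hs]
        rfl
  have hnot : ∃ g' ∈ M.map e.toMonoidHom, ∃ w : Fin m ⊕ Fin m → F, w ≠ 0 ∧
      ∀ v, (ExtField.kline F K w).map g'.toLinearMap ≠ ExtField.kline F K v := by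
    refine ⟨e g, ⟨g, hgM, rfl⟩, ?_⟩
    by_contra hcon
    push Not at hcon
    exact hgN (hNmem g (ExtField.semilinear_of_lines hd (e g) hcon))
  rcases dichotomy hS hfr hr hnot with hall | ⟨hF, hpairs⟩
  · refine GeoClasses.spGL_le_of_spTau_mem fun v t => ?_
    obtain ⟨_, ⟨g', hg', rfl⟩, hgx⟩ := hall v t
    have heq : spTau v t = g' := gl_ext_mulVec fun x => by
      rw [GeoClasses.spTau_apply, ← he]
      have := hgx x
      rw [LinearMap.smul_apply, tau_apply, hform, smul_smul] at this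
      exact this.symm
    rw [heq]; exact hg'
  · have hm3 : 3 ≤ m := hsmall.resolve_right fun hq => by
      have hle : Fintype.card F ≤ 2 := by
        have hsub : (Finset.univ : Finset F) ⊆ {0, 1} := fun t _ => by
          rcases hF t with e | e <;> simp [e]
        exact (Finset.card_le_card hsub).trans Finset.card_le_two
      omega
    refine spGL_le_of_pairs hm3 hF fun a b ha hb => ?_
    obtain ⟨_, ⟨g', hg', rfl⟩, hgx⟩ := hpairs a b ha hb
    have heq : spTau a (1 : F) * spTau b (1 : F) = g' := gl_ext_mulVec fun x => by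
      rw [Units.val_mul, ← Matrix.mulVec_mulVec, GeoClasses.spTau_apply, GeoClasses.spTau_apply,
        ← he g', one_mul, one_mul]
      have := hgx x
      rw [tau_apply, tau_apply, hform, hform] at this
      exact this.symm
    rw [heq]; exact hg'

theorem spGL_extField_maximal {F : Type*} [Field F] [Fintype F] {m r : ℕ} (hm : 2 ≤ m)
    (hsmall : 3 ≤ m ∨ 2 < Fintype.card F)
    (hr : r.Prime) (K : Subalgebra F (Matrix (Fin m ⊕ Fin m) (Fin m ⊕ Fin m) F))
    (hK : IsFieldSubalgebra r K) (hsa : IsSelfAdjointFor (Cfsg.sympForm m F) K)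
    (halt : ∀ k ∈ K, ∀ v : (Fin m ⊕ Fin m → F), Cfsg.sympForm m F (Matrix.mulVec k v) v = 0) :
    IsMaximalIn (Cfsg.spGL m F) (subalgebraNormalizer K ⊓ Cfsg.spGL m F) := by
  haveI : Nonempty (Fin m ⊕ Fin m) := ⟨Sum.inl ⟨0, by omega⟩⟩
  letI : Field K := (isField_of_isFieldSubalgebra hK).toField
  haveI : Finite K := Finite.of_injective
    (fun x : K => (x : Matrix (Fin m ⊕ Fin m) (Fin m ⊕ Fin m) F)) Subtype.val_injective
  exact spGL_extField_maximal_aux hm hsmall hr (K := K) hK.finrank_eq K.val K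
    (fun x => ⟨fun hx => ⟨⟨x, hx⟩, rfl⟩, fun ⟨c, hc⟩ => hc ▸ c.2⟩) hK hsa halt

end Cfsg.Agent.MaxSub.SympExt
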